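import Cfsg.Agent.Lib.SSClass.Model
import Cfsg.Agent.Lib.Classical.OmegaDesc
import Cfsg.Agent.Lib.Elusive.MinusBlock

/-!
# Orthogonal sums with a prescribed standard form
-/

set_option autoImplicit false
set_option linter.unusedSectionVars false
set_option linter.unusedVariables false

namespace Cfsg.Agent.Lib.SSClass

open Polynomial Module QuadraticMap
open Cfsg.Agent.Lib.Orth.Forms Cfsg.Agent.Lib.Orth.Std Cfsg.Agent.Lib.Orth.HypBasis Cfsg.Agent.Lib.QuadFn.MaxSingular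
open Cfsg.Agent.Lib.Classical.OmegaDesc Cfsg.Agent.Lib.Classical.OmegaForms Cfsg.Agent.Lib.Classical.BinaryForms
open Cfsg.Agent.Lib.Elusive.MinusBlock

universe u v

section Lagr

variable {F : Type u} [Field F]

/-- The form has a Lagrangian. -/
def HasLagr {V : Type*} [AddCommGroup V] [Module F V] (Q : QuadraticForm F V) : Prop :=
  ∃ U : Submodule F V, TS (⇑Q) U ∧ 2 * finrank F U = finrank F V

theorem HasLagr.prod {V V' : Type*} [AddCommGroup V] [Module F V] [AddCommGroup V'] [Module F V']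
    [FiniteDimensional F V] [FiniteDimensional F V']
    {Q : QuadraticForm F V} {Q' : QuadraticForm F V'} (h : HasLagr Q) (h' : HasLagr Q') : HasLagr (Q.prod Q') := by
  obtain ⟨U, hU, hd⟩ := h
  obtain ⟨U', hU', hd'⟩ := h'
  refine ⟨U.prod U', ?_, ?_⟩
  · rintro ⟨x, y⟩ ⟨hx, hy⟩
    show Q x + Q' y = 0
    rw [hU x hx, hU' y hy, add_zero]
  · have h1 : finrank F (U.prod U') = finrank F U + finrank F U' := by
      let e : (U.prod U') ≃ₗ[F] U × U' :=
        { toFun := fun x => (⟨x.1.1, x.2.1⟩, ⟨x.1.2, x.2.2⟩)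
          map_add' := fun a b => rfl
          map_smul' := fun c a => rfl
          invFun := fun y => ⟨(y.1.1, y.2.1), y.1.2, y.2.2⟩
          left_inv := fun x => rfl
          right_inv := fun y => rfl }
      rw [e.finrank_eq, finrank_prod]
    rw [h1, finrank_prod, mul_add, hd, hd']

theorem HasLagr.of_equiv {V V' : Type*} [AddCommGroup V] [Module F V] [AddCommGroup V'] [Module F V']
    [FiniteDimensional F V] {Q : QuadraticForm F V} {Q' : QuadraticForm F V'} (Θ : V ≃ₗ[F] V')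
    (hΘ : ∀ x, Q' (Θ x) = Q x) (h : HasLagr Q) : HasLagr Q' := by
  obtain ⟨U, hU, hd⟩ := h
  refine ⟨U.map Θ.toLinearMap, ?_, ?_⟩
  · rintro _ ⟨x, hx, rfl⟩
    show Q' (Θ x) = 0
    rw [hΘ, hU x hx]
  · rw [LinearEquiv.finrank_map_eq, hd, Θ.finrank_eq]

variable [Fintype F]

theorem hasLagr_bot {V : Type*} [AddCommGroup V] [Module F V] (Q : QuadraticForm F V) (h : finrank F V = 0) : HasLagr Q := by
  refine ⟨⊥, ?_, ?_⟩
  · intro x hx
    rw [(Submodule.mem_bot F).mp hx, map_zero]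
  · rw [h, finrank_bot]

theorem finrank_plus (k : ℕ) : finrank F (Fin k ⊕ Fin k → F) = 2 * k := by
  rw [finrank_fintype_fun_eq_card]
  simp
  omega

theorem finrank_minus' (k : ℕ) : finrank F ((Fin k ⊕ Fin k) ⊕ Fin 2 → F) = 2 * (k + 1) := by
  rw [finrank_fintype_fun_eq_card]
  simp
  omega

theorem finrank_odd (k : ℕ) : finrank F (Unit ⊕ (Fin k ⊕ Fin k) → F) = 2 * k + 1 := by
  rw [finrank_fintype_fun_eq_card]
  simp
  omega

theorem hasLagr_plus (k : ℕ) : HasLagr (plusForm k F) := by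
  let e : Fin k → (Fin k ⊕ Fin k → F) := fun i => Pi.single (Sum.inl i) 1
  let L : (Fin k → F) →ₗ[F] (Fin k ⊕ Fin k → F) :=
    { toFun := fun x => Sum.elim x 0
      map_add' := fun a b => by
        ext (i | i) <;> simp
      map_smul' := fun c a => by
        ext (i | i) <;> simp }
  have hL : Function.Injective L := by
    intro a b h
    ext i
    exact congrFun h (Sum.inl i)
  refine ⟨LinearMap.range L, ?_, ?_⟩
  · rintro _ ⟨x, rfl⟩
    show Cfsg.quadFormPlus k F (Sum.elim x 0) = 0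
    simp [Cfsg.quadFormPlus]
  · rw [LinearMap.finrank_range_of_inj hL, finrank_plus]
    simp

/-- The orthogonal sum of two elliptic forms is hyperbolic. -/
theorem hasLagr_minus_minus (k₁ k₂ : ℕ) {a b : F}
    (hab : ∀ z₁ z₂ : F, z₁ ^ 2 + a * z₁ * z₂ + b * z₂ ^ 2 = 0 → z₁ = 0 ∧ z₂ = 0) :
    HasLagr ((minusForm k₁ F a b).prod (minusForm k₂ F a b)) := by
  obtain ⟨α, β, hαβ⟩ := exists_norm_eq hab (-1)
  let c₁ : F × F → F := fun z => z.1 * α - b * z.2 * β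
  let c₂ : F × F → F := fun z => z.1 * β + z.2 * α + a * z.2 * β
  let L : ((Fin k₁ → F) × (Fin k₂ → F)) × (F × F) →ₗ[F]
      ((Fin k₁ ⊕ Fin k₁) ⊕ Fin 2 → F) × ((Fin k₂ ⊕ Fin k₂) ⊕ Fin 2 → F) :=
    { toFun := fun x => (Sum.elim (Sum.elim x.1.1 0) ![x.2.1, x.2.2], Sum.elim (Sum.elim x.1.2 0) ![c₁ x.2, c₂ x.2])
      map_add' := fun u v => by
        apply Prod.ext
        · ext ((i | i) | i)
          · simp
          · simp
          · fin_cases i <;> simp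
        · ext ((i | i) | i)
          · simp
          · simp
          · fin_cases i <;> simp [c₁, c₂] <;> ring
      map_smul' := fun t v => by
        apply Prod.ext
        · ext ((i | i) | i)
          · simp
          · simp
          · fin_cases i <;> simp
        · ext ((i | i) | i)
          · simp
          · simp
          · fin_cases i <;> simp [c₁, c₂] <;> ring }
  have hL : Function.Injective L := by
    intro u v h
    have h1 := congrArg Prod.fst h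
    have h2 := congrArg Prod.snd h
    apply Prod.ext
    · apply Prod.ext
      · ext i
        exact congrFun h1 (Sum.inl (Sum.inl i))
      · ext i
        exact congrFun h2 (Sum.inl (Sum.inl i))
    · apply Prod.ext
      · exact congrFun h1 (Sum.inr 0)
      · exact congrFun h1 (Sum.inr 1)
  refine ⟨LinearMap.range L, ?_, ?_⟩
  · rintro _ ⟨x, rfl⟩
    show Cfsg.quadFormMinus k₁ F a b (Sum.elim (Sum.elim x.1.1 0) ![x.2.1, x.2.2]) +
      Cfsg.quadFormMinus k₂ F a b (Sum.elim (Sum.elim x.1.2 0) ![c₁ x.2, c₂ x.2]) = 0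
    simp only [Cfsg.quadFormMinus, Sum.elim_inl, Sum.elim_inr, Pi.zero_apply, mul_zero,
      Finset.sum_const_zero, zero_add, Matrix.cons_val_zero, Matrix.cons_val_one, c₁, c₂]
    linear_combination (x.2.1 ^ 2 + a * x.2.1 * x.2.2 + b * x.2.2 ^ 2) * hαβ
  · rw [LinearMap.finrank_range_of_inj hL, finrank_prod, finrank_prod, finrank_prod, finrank_prod, finrank_minus', finrank_minus']
    simp
    ring

end Lagr

section Glue

variable {F : Type u} [Field F] [Fintype F]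
variable {V₁ : Type u} [AddCommGroup V₁] [Module F V₁] [FiniteDimensional F V₁]

theorem no_lagr_of_not {V : Type*} [AddCommGroup V] [Module F V] [FiniteDimensional F V] {Q : QuadraticForm F V} {k : ℕ}
    (hV : finrank F V = 2 * (k + 1)) (h : ¬ HasLagr Q) : ¬ ∃ U : Submodule F V, TS (⇑Q) U ∧ finrank F U = k + 1 := by
  rintro ⟨U, hU, hd⟩
  exact h ⟨U, hU, by rw [hV, hd]⟩

/-- Orthogonal sum with the plus form as result. -/
theorem glue_plus (Q₁ : QuadraticForm F V₁) (hQ₁ : (polarBilin Q₁).Nondegenerate) {d m : ℕ} (hV : finrank F V₁ = 2 * d)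
    (hdm : d ≤ m) (hd : d = m → HasLagr Q₁) :
    ∃ (R : Type u) (_ : AddCommGroup R) (_ : Module F R) (_ : FiniteDimensional F R) (QR : QuadraticForm F R),
      (polarBilin QR).Nondegenerate ∧ ∃ Θ : (Fin m ⊕ Fin m → F) ≃ₗ[F] V₁ × R, ∀ x, (Q₁.prod QR) (Θ x) = Cfsg.quadFormPlus m F x := by
  classical
  have hfin : ∀ (R : Type u) [AddCommGroup R] [Module F R] [FiniteDimensional F R], finrank F R = 2 * (m - d) →
      finrank F (V₁ × R) = 2 * m := by
    intro R _ _ _ h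
    rw [finrank_prod, hV, h]
    omega
  have key : ∀ (R : Type u) [AddCommGroup R] [Module F R] [FiniteDimensional F R] (QR : QuadraticForm F R),
      (polarBilin QR).Nondegenerate → finrank F R = 2 * (m - d) → HasLagr (Q₁.prod QR) →
      ∃ (R : Type u) (_ : AddCommGroup R) (_ : Module F R) (_ : FiniteDimensional F R) (QR : QuadraticForm F R),
      (polarBilin QR).Nondegenerate ∧ ∃ Θ : (Fin m ⊕ Fin m → F) ≃ₗ[F] V₁ × R, ∀ x, (Q₁.prod QR) (Θ x) = Cfsg.quadFormPlus m F x := by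
    intro R _ _ _ QR hR hfR hL
    obtain ⟨U, hU, hUd⟩ := hL
    have h1 := hfin R hfR
    obtain ⟨Θ, hΘ⟩ := exists_equiv_plus_of_ts (nondeg_prod hQ₁ hR) h1 hU (by omega)
    exact ⟨R, inferInstance, inferInstance, inferInstance, QR, hR, Θ, hΘ⟩
  by_cases hL : HasLagr Q₁
  · exact key (Fin (m - d) ⊕ Fin (m - d) → F) (plusForm (m - d) F) (plusForm_nondeg _) (finrank_plus _) (hL.prod (hasLagr_plus _))
  · have hdm' : d < m := lt_of_le_of_ne hdm (fun h => hL (hd h))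
    have hd0 : d ≠ 0 := by
      rintro rfl
      exact hL (hasLagr_bot Q₁ (by omega))
    obtain ⟨k₁, rfl⟩ : ∃ k₁, d = k₁ + 1 := ⟨d - 1, by omega⟩
    obtain ⟨k₂, hk₂⟩ : ∃ k₂, m - (k₁ + 1) = k₂ + 1 := ⟨m - (k₁ + 1) - 1, by omega⟩
    obtain ⟨a₀, b₀, hab, hΘ⟩ := exists_equiv_minus hQ₁ hV (no_lagr_of_not hV hL)
    obtain ⟨Θ₁, hΘ₁⟩ := hΘ a₀ b₀ hab
    refine key ((Fin k₂ ⊕ Fin k₂) ⊕ Fin 2 → F) (minusForm k₂ F a₀ b₀) (minusForm_nondeg k₂ hab) ?_ ?_
    · rw [hk₂, finrank_minus']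
    · refine HasLagr.of_equiv (Θ₁.prodCongr (LinearEquiv.refl F _)) ?_ (hasLagr_minus_minus k₁ k₂ hab)
      rintro ⟨x, y⟩
      show Q₁ (Θ₁ x) + minusForm k₂ F a₀ b₀ y = Cfsg.quadFormMinus k₁ F a₀ b₀ x + Cfsg.quadFormMinus k₂ F a₀ b₀ y
      rw [hΘ₁]
      rfl

omit [Fintype F] in
theorem minus_split' {n k₁ k₂ : ℕ} (ε : Fin n ≃ Fin k₁ ⊕ Fin k₂) (a b : F) (v : (Fin n ⊕ Fin n) ⊕ Fin 2 → F) :
    Cfsg.quadFormMinus n F a b v = Cfsg.quadFormMinus k₁ F a b ((v ∘ glueEquiv ε) ∘ Sum.inl) +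
      Cfsg.quadFormPlus k₂ F ((v ∘ glueEquiv ε) ∘ Sum.inr) := by
  simp only [Cfsg.quadFormMinus, Cfsg.quadFormPlus]
  rw [← Equiv.sum_comp ε.symm, Fintype.sum_sum_type]
  simp only [glueEquiv, Function.comp_apply, Equiv.coe_fn_mk, Sum.elim_inl, Sum.elim_inr]
  ring

/-- Orthogonal sum with the minus form as result. -/
theorem glue_minus (Q₁ : QuadraticForm F V₁) (hQ₁ : (polarBilin Q₁).Nondegenerate) {d k : ℕ} (hV : finrank F V₁ = 2 * d)
    (hdm : d ≤ k + 1) (hd : d = k + 1 → ¬ HasLagr Q₁) {a b : F}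
    (hab : ∀ z₁ z₂ : F, z₁ ^ 2 + a * z₁ * z₂ + b * z₂ ^ 2 = 0 → z₁ = 0 ∧ z₂ = 0) :
    ∃ (R : Type u) (_ : AddCommGroup R) (_ : Module F R) (_ : FiniteDimensional F R) (QR : QuadraticForm F R),
      (polarBilin QR).Nondegenerate ∧ ∃ Θ : ((Fin k ⊕ Fin k) ⊕ Fin 2 → F) ≃ₗ[F] V₁ × R, ∀ x, (Q₁.prod QR) (Θ x) = Cfsg.quadFormMinus k F a b x := by
  classical
  have split : ∀ k₁ k₂ : ℕ, k = k₁ + k₂ → ∃ Ψ : ((Fin k ⊕ Fin k) ⊕ Fin 2 → F) ≃ₗ[F]
      ((Fin k₁ ⊕ Fin k₁) ⊕ Fin 2 → F) × (Fin k₂ ⊕ Fin k₂ → F), ∀ v,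
      Cfsg.quadFormMinus k F a b v = Cfsg.quadFormMinus k₁ F a b (Ψ v).1 + Cfsg.quadFormPlus k₂ F (Ψ v).2 := by
    intro k₁ k₂ hk
    let ε : Fin k ≃ Fin k₁ ⊕ Fin k₂ := (finCongr hk).trans finSumFinEquiv.symm
    let Ψ : ((Fin k ⊕ Fin k) ⊕ Fin 2 → F) ≃ₗ[F] ((Fin k₁ ⊕ Fin k₁) ⊕ Fin 2 → F) × (Fin k₂ ⊕ Fin k₂ → F) :=
      (LinearEquiv.funCongrLeft F F (glueEquiv ε)).trans (LinearEquiv.sumArrowLequivProdArrow _ _ F F)
    refine ⟨Ψ, fun v => ?_⟩
    rw [minus_split' ε]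
    rfl
  by_cases hL : HasLagr Q₁
  · have hdk : d ≤ k := by
      by_contra hc
      exact hd (by omega) hL
    obtain ⟨Θ₁, hΘ₁⟩ := exists_equiv_plus_of_ts (m := d) hQ₁ hV hL.choose_spec.1 (by have := hL.choose_spec.2; omega)
    obtain ⟨Ψ, hΨ⟩ := split (k - d) d (by omega)
    refine ⟨(Fin (k - d) ⊕ Fin (k - d)) ⊕ Fin 2 → F, inferInstance, inferInstance, inferInstance, minusForm (k - d) F a b,
      minusForm_nondeg _ hab, (Ψ.trans (LinearEquiv.prodComm F _ _)).trans (Θ₁.prodCongr (LinearEquiv.refl F _)), fun x => ?_⟩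
    show Q₁ (Θ₁ (Ψ x).2) + minusForm (k - d) F a b (Ψ x).1 = _
    rw [hΘ₁, hΨ, add_comm]
    rfl
  · have hd0 : d ≠ 0 := by
      rintro rfl
      exact hL (hasLagr_bot Q₁ (by omega))
    obtain ⟨k₁, rfl⟩ : ∃ k₁, d = k₁ + 1 := ⟨d - 1, by omega⟩
    obtain ⟨a₀, b₀, -, hΘ⟩ := exists_equiv_minus hQ₁ hV (no_lagr_of_not hV hL)
    obtain ⟨Θ₁, hΘ₁⟩ := hΘ a b hab
    obtain ⟨Ψ, hΨ⟩ := split k₁ (k - k₁) (by omega)
    refine ⟨Fin (k - k₁) ⊕ Fin (k - k₁) → F, inferInstance, inferInstance, inferInstance, plusForm (k - k₁) F,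
      plusForm_nondeg _, Ψ.trans (Θ₁.prodCongr (LinearEquiv.refl F _)), fun x => ?_⟩
    show Q₁ (Θ₁ (Ψ x).1) + plusForm (k - k₁) F (Ψ x).2 = _
    rw [hΘ₁, hΨ]
    rfl

/-- Orthogonal sum with the odd form as result, up to a scalar. -/
theorem glue_odd (h2 : (2 : F) ≠ 0) (Q₁ : QuadraticForm F V₁) (hQ₁ : (polarBilin Q₁).Nondegenerate) {d m : ℕ} (hV : finrank F V₁ = 2 * d)
    (hdm : d ≤ m) :
    ∃ (R : Type u) (_ : AddCommGroup R) (_ : Module F R) (_ : FiniteDimensional F R) (QR : QuadraticForm F R),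
      (polarBilin QR).Nondegenerate ∧ ∃ (Θ : (Unit ⊕ (Fin m ⊕ Fin m) → F) ≃ₗ[F] V₁ × R) (c : F), c ≠ 0 ∧
        ∀ x, (Q₁.prod QR) (Θ x) = c * Cfsg.quadFormOdd m F x := by
  have hR := oddForm_nondeg (F := F) (m - d) h2
  have hnd := nondeg_prod hQ₁ hR
  have hfin : finrank F (V₁ × (Unit ⊕ (Fin (m - d) ⊕ Fin (m - d)) → F)) = 2 * m + 1 := by
    rw [finrank_prod, hV, finrank_odd]
    omega
  obtain ⟨Θ, c, hc, hΘ⟩ := exists_equiv_odd hnd hfin
  exact ⟨_, inferInstance, inferInstance, inferInstance, oddForm (m - d) F, hR, Θ, c, hc, hΘ⟩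

end Glue

end Cfsg.Agent.Lib.SSClass
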