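import Cfsg.Agent.Lib.SSClass.Glue

/-!
# Fixed-point-free isometries and the type of the form
-/

set_option autoImplicit false
set_option linter.unusedSectionVars false
set_option linter.unusedVariables false

namespace Cfsg.Agent.Lib.SSClass

open Polynomial Module QuadraticMap
open Cfsg.Agent.S2568 (SS Th mem_Th x1_mem sum_deg_Th card_SS sum_deg_ss card_tuples)
open Cfsg.Agent.Lib.MatConj.Semisimple Cfsg.Agent.Lib.MatConj.CycloFactors
open Cfsg.Agent.Lib.ElusF.SpModel
open Cfsg.Agent.Lib.Orth.Forms Cfsg.Agent.Lib.Orth.Std Cfsg.Agent.Lib.Orth.HypBasis Cfsg.Agent.Lib.QuadFn.MaxSingular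
open Cfsg.Agent.Lib.Classical.OmegaDesc Cfsg.Agent.Lib.Classical.OmegaForms Cfsg.Agent.Lib.Elusive.QuadCount

universe u v

section Free

theorem dvd_card_of_free {X : Type*} [Finite X] (f : Function.End X) {r : ℕ} (hr : r.Prime) (hf : f ^ r = 1)
    (hfix : ∀ x, f x ≠ x) : r ∣ Nat.card X := by
  classical
  haveI := Fintype.ofFinite X
  haveI : Fact r.Prime := ⟨hr⟩
  have h1 := Equiv.Perm.card_fixedPoints_modEq (α := X) (f := f) (p := r) (n := 1) (by simpa using hf)
  have h3 : Fintype.card X ≡ 0 [MOD r] := by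
    convert h1 using 1
    symm
    apply Fintype.card_eq_zero_iff.mpr
    exact ⟨fun x => hfix x.1 x.2⟩
  rw [Nat.card_eq_fintype_card]
  exact (Nat.modEq_zero_iff_dvd).mp h3

variable {F : Type u} [Field F] [Fintype F] {V : Type v} [AddCommGroup V] [Module F V] [FiniteDimensional F V]

theorem dvd_card_nonsing (Q : QuadraticForm F V) {T : End F V} {r : ℕ} (hr : r.Prime) (hT : T ^ r = 1)
    (hiso : ∀ v, Q (T v) = Q v) (hfix : ∀ v, T v = v → v = 0) : r ∣ Nat.card {v : V // Q v ≠ 0} := by
  classical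
  haveI : Finite V := Module.finite_of_finite F
  let f : Function.End {v : V // Q v ≠ 0} := fun x => ⟨T x.1, by rw [hiso]; exact x.2⟩
  have hpow : ∀ (n : ℕ) (x : {v : V // Q v ≠ 0}), ((f ^ n) x).1 = (T ^ n) x.1 := by
    intro n
    induction n with
    | zero => intro x; rfl
    | succ n ih =>
      intro x
      rw [pow_succ, pow_succ]
      show ((f ^ n) (f x)).1 = _
      rw [ih]
      rfl
  apply dvd_card_of_free f hr
  · funext x
    apply Subtype.ext
    rw [hpow, hT]
    rfl
  · intro x hx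
    have h1 : T x.1 = x.1 := congrArg Subtype.val hx
    apply x.2
    rw [hfix _ h1, map_zero]

theorem fix_of_Dk {T : End F V} (h : Dk T (X - 1 : F[X]) = 0) (v : V) (hv : T v = v) : v = 0 := by
  have h1 : LinearMap.ker (aeval T (X - 1 : F[X])) = ⊥ := Submodule.finrank_eq_zero.mp h
  have h2 : v ∈ LinearMap.ker (aeval T (X - 1 : F[X])) := by
    rw [LinearMap.mem_ker]
    simp [hv]
  rw [h1] at h2
  exact (Submodule.mem_bot F).mp h2

end Free

section Parity

variable {F : Type u} [Field F] [Fintype F] {p q r : ℕ} [Fact p.Prime] [CharP F p]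
variable {V : Type v} [AddCommGroup V] [Module F V] [FiniteDimensional F V]

theorem arith_setup (hF : Fintype.card F = q) (hr : r.Prime) (hrp : r ≠ p) {e : ℕ} (he : 0 < e)
    (hi : orderOf (q : ZMod r) = 2 * e) :
    (q : ZMod r) ≠ 0 ∧ (q : ZMod r) ≠ 1 ∧ (q : ZMod r) ^ e = -1 := by
  haveI : Fact r.Prime := ⟨hr⟩
  have h0 := natCast_ne_zero_zmod hF r hr hrp
  refine ⟨h0, ?_, ?_⟩
  · intro h1
    rw [h1, orderOf_one] at hi
    omega
  · have hdvd := dvd_pow_add_one hr hi he
    have h1 : ((q ^ e + 1 : ℕ) : ZMod r) = 0 := (ZMod.natCast_eq_zero_iff _ _).mpr hdvd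
    push_cast at h1
    exact eq_neg_of_add_eq_zero_left h1

/-- The parity of the number of field blocks determines the type. -/
theorem parity (hF : Fintype.card F = q) (hr : r.Prime) (hr2 : r ≠ 2) (hrp : r ≠ p) (Q : QuadraticForm F V)
    (hQ : (polarBilin Q).Nondegenerate) {T : End F V} (hT : T ^ r = 1) (hiso : ∀ v, Q (T v) = Q v)
    (hfix : Dk T (X - 1 : F[X]) = 0) {e N d : ℕ} (he : 0 < e) (hi : orderOf (q : ZMod r) = 2 * e)
    (hd : finrank F V = 2 * d) (hdN : d = e * N) : (HasLagr Q → Even N) ∧ (¬ HasLagr Q → Odd N) := by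
  classical
  haveI : Fact r.Prime := ⟨hr⟩
  haveI : Fact (2 < r) := ⟨lt_of_le_of_ne hr.two_le (Ne.symm hr2)⟩
  have hq2 : 2 ≤ q := hF ▸ Fintype.one_lt_card
  obtain ⟨h0, h1, hm⟩ := arith_setup hF hr hrp he hi
  have hne : (-1 : ZMod r) ≠ 1 := ZMod.neg_one_ne_one
  have hdvd := dvd_card_nonsing Q hr hT hiso (fix_of_Dk hfix)
  have hqd : (q : ZMod r) ^ d = (-1) ^ N := by rw [hdN, pow_mul, hm]
  constructor
  · rintro ⟨U, hU, hUd⟩
    rcases Nat.eq_zero_or_pos d with hd0 | hdpos
    · have : N = 0 := by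
        rcases Nat.eq_zero_or_pos N with h | h
        · exact h
        · have := Nat.mul_pos he h
          omega
      rw [this]
      exact Even.zero
    obtain ⟨Θ, hΘ⟩ := exists_equiv_plus_of_ts (m := d) hQ hd hU (by omega)
    have hc : Nat.card {v : V // Q v ≠ 0} = Nat.card {v : Fin d ⊕ Fin d → F // Cfsg.quadFormPlus d F v ≠ 0} := by
      apply Nat.card_congr
      exact (Θ.symm.toEquiv.subtypeEquiv (fun v => by
        have := hΘ (Θ.symm v)
        rw [Θ.apply_symm_apply] at this
        show Q v ≠ 0 ↔ Cfsg.quadFormPlus d F (Θ.symm v) ≠ 0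
        rw [this]))
    rw [hc, card_plus_ne hF d hdpos] at hdvd
    have h3 : ((((q - 1) * (q ^ (d - 1) * (q ^ d - 1)) : ℕ)) : ZMod r) = 0 := (ZMod.natCast_eq_zero_iff _ _).mpr hdvd
    have hq1 : 1 ≤ q := by omega
    have hqd1 : 1 ≤ q ^ d := Nat.one_le_pow _ _ (by omega)
    rw [Nat.cast_mul, Nat.cast_mul, Nat.cast_sub hq1, Nat.cast_sub hqd1, Nat.cast_pow, Nat.cast_pow, Nat.cast_one] at h3
    have h4 : (q : ZMod r) - 1 ≠ 0 := sub_ne_zero.mpr h1
    have h5 : (q : ZMod r) ^ d - 1 = 0 := by
      rcases mul_eq_zero.mp h3 with h | h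
      · exact absurd h h4
      · rcases mul_eq_zero.mp h with h | h
        · exact absurd h (pow_ne_zero _ h0)
        · exact h
    rw [hqd, sub_eq_zero] at h5
    by_contra hodd
    rw [Nat.not_even_iff_odd] at hodd
    rw [hodd.neg_one_pow] at h5
    exact hne h5
  · intro hL
    have hd0 : d ≠ 0 := by
      rintro rfl
      exact hL (hasLagr_bot Q (by omega))
    obtain ⟨k, hk⟩ : ∃ k, d = k + 1 := ⟨d - 1, by omega⟩
    subst hk
    obtain ⟨a₀, b₀, hab, hΘ⟩ := exists_equiv_minus hQ hd (no_lagr_of_not hd hL)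
    obtain ⟨Θ, hΘ₁⟩ := hΘ a₀ b₀ hab
    have hc : Nat.card {v : V // Q v ≠ 0} = Nat.card {v : (Fin k ⊕ Fin k) ⊕ Fin 2 → F // Cfsg.quadFormMinus k F a₀ b₀ v ≠ 0} := by
      apply Nat.card_congr
      exact (Θ.symm.toEquiv.subtypeEquiv (fun v => by
        have := hΘ₁ (Θ.symm v)
        rw [Θ.apply_symm_apply] at this
        show Q v ≠ 0 ↔ Cfsg.quadFormMinus k F a₀ b₀ (Θ.symm v) ≠ 0
        rw [this]))
    rw [hc, card_minus_ne hF k a₀ b₀ hab] at hdvd
    have h3 : (((q - 1) * (q ^ k * (q ^ (k + 1) + 1)) : ℕ) : ZMod r) = 0 := (ZMod.natCast_eq_zero_iff _ _).mpr hdvd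
    have hq1 : 1 ≤ q := by omega
    rw [Nat.cast_mul, Nat.cast_mul, Nat.cast_sub hq1, Nat.cast_add, Nat.cast_pow, Nat.cast_pow, Nat.cast_one] at h3
    have h4 : (q : ZMod r) - 1 ≠ 0 := sub_ne_zero.mpr h1
    have h5 : (q : ZMod r) ^ (k + 1) + 1 = 0 := by
      rcases mul_eq_zero.mp h3 with h | h
      · exact absurd h h4
      · rcases mul_eq_zero.mp h with h | h
        · exact absurd h (pow_ne_zero _ h0)
        · exact h
    rw [hqd] at h5
    by_contra heven
    rw [Nat.not_odd_iff_even] at heven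
    rw [heven.neg_one_pow] at h5
    exact hne (eq_neg_of_add_eq_zero_left h5).symm

end Parity

section OddCase

variable {F : Type u} [Field F] [Fintype F] {p q r : ℕ} [Fact p.Prime] [CharP F p]
variable {V : Type v} [AddCommGroup V] [Module F V] [FiniteDimensional F V]

theorem prod_SS (hr : r.Prime) (hrp : r ≠ p) : (X - 1) * ∏ g : SS F r, g.1 = f0 F r := by
  classical
  have h1 := UniqueFactorizationMonoid.prod_normalizedFactors_eq (f0_ne_zero (F := F) r hr)
  rw [(f0_monic r hr).normalize_eq_self] at h1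
  have h2 : (UniqueFactorizationMonoid.normalizedFactors (f0 F r)).Nodup :=
    (UniqueFactorizationMonoid.squarefree_iff_nodup_normalizedFactors (f0_ne_zero r hr)).mp (f0_squarefree r hr hrp)
  have h3 : ∏ Q ∈ Th F r, Q = f0 F r := by
    rw [Cfsg.Agent.S2568.Th, Finset.prod, Multiset.toFinset_val, Multiset.dedup_eq_self.mpr h2, Multiset.map_id']
    exact h1
  rw [Finset.prod_coe_sort (SS F r) (fun Q => Q)]
  rw [← h3]
  exact Finset.mul_prod_erase (Th F r) (fun Q => Q) (x1_mem r hr)

theorem prod_half {S : Type*} [Fintype S] [DecidableEq S] {σ : S → S} (hσ : Function.Involutive σ) {P : Finset S}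
    (hP : ∀ x, x ∈ P ↔ σ x ∉ P) {M : Type*} [CommMonoid M] (f : S → M) :
    ∏ x, f x = ∏ x ∈ P, (f x * f (σ x)) := by
  classical
  rw [← Finset.prod_mul_prod_compl P f, Finset.prod_mul_distrib]
  congr 1
  symm
  apply Finset.prod_nbij' σ σ
  · intro x hx
    rw [Finset.mem_compl]
    exact (hP x).mp hx
  · intro x hx
    rw [Finset.mem_compl] at hx
    rw [hP, hσ x]
    exact hx
  · intro x _
    exact hσ x
  · intro x _
    exact hσ x
  · intro x _
    rfl

theorem reverse_prod_star (hr : r.Prime) (s : Finset (SS F r)) :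
    ∃ c : F, c ≠ 0 ∧ reverse (∏ g ∈ s, g.1) = C c * ∏ g ∈ s, (star hr g).1 := by
  classical
  induction s using Finset.induction_on with
  | empty =>
    refine ⟨1, one_ne_zero, ?_⟩
    have h1 := reverse_C (1 : F)
    simpa using h1
  | insert a s ha ih =>
    obtain ⟨c, hc, h⟩ := ih
    have h5 := (SS_props hr a).2.2.2.2
    refine ⟨a.1.coeff 0 * c, mul_ne_zero h5 hc, ?_⟩
    rw [Finset.prod_insert ha, Finset.prod_insert ha, reverse_mul_of_domain, h, C_mul]
    have h6 : reverse a.1 = C (a.1.coeff 0) * (star hr a).1 := by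
      show _ = C (a.1.coeff 0) * dualP a.1
      rw [dualP, ← mul_assoc, ← C_mul, mul_inv_cancel₀ h5, C_1, one_mul]
    rw [h6]
    ring

/-- A fixed-point-free isometry of prime order, with `q` of odd order mod `r`: the form has a Lagrangian. -/
theorem lagr_of_odd (hF : Fintype.card F = q) (hr : r.Prime) (hr2 : r ≠ 2) (hrp : r ≠ p)
    (hodd : Odd (orderOf (q : ZMod r))) (Q : QuadraticForm F V)
    (hQ : (polarBilin Q).Nondegenerate) {T : End F V} (hT : T ^ r = 1) (hiso : ∀ v, Q (T v) = Q v)
    (hfix : Dk T (X - 1 : F[X]) = 0) : HasLagr Q := by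
  classical
  have hrpos := hr.pos
  have hker1 := fix_of_Dk hfix
  have hBiso : ∀ u v, polarBilin Q (T u) (T v) = polarBilin Q u v := by
    intro u v
    show polar Q (T u) (T v) = polar Q u v
    simp only [polar, ← map_add, hiso]
  set T' : End F V := T ^ (r - 1) with hT'
  have h : T' * T = 1 := by rw [hT', ← pow_succ, Nat.sub_add_cancel hrpos, hT]
  have h' : T * T' = 1 := by rw [hT', ← pow_succ', Nat.sub_add_cancel hrpos, hT]
  have hfpf : ∀ g : SS F r, star hr g ≠ g := fun g => star_ne_of_odd hr hr2 g (by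
    rw [natDegree_SS hF hr hrp g]
    exact hodd)
  obtain ⟨P, hP⟩ := exists_half (star (F := F) hr) (star_involutive hr) hfpf
  set f : F[X] := ∏ g ∈ P, g.1 with hf
  set f' : F[X] := ∏ g ∈ P, (star hr g).1 with hf'
  have hff : f * f' = ∏ g : SS F r, g.1 := by
    rw [prod_half (star_involutive hr) hP (fun g : SS F r => g.1), Finset.prod_mul_distrib]
  have hmain : (X - 1) * (f * f') = f0 F r := by rw [hff, prod_SS hr hrp]
  have hzero : aeval T (f * f') = 0 := by
    apply LinearMap.ext
    intro x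
    apply hker1
    have h1 := aeval_f0 (F := F) hT
    rw [← hmain, map_mul] at h1
    have h2 := congrArg (fun S : End F V => S x) h1
    simp only [Module.End.mul_apply, map_sub, aeval_X, map_one, LinearMap.sub_apply, Module.End.one_apply, sub_eq_zero,
      LinearMap.zero_apply] at h2
    simpa using h2
  have hcop : IsCoprime f f' := by
    have h1 : Squarefree (f * f') := (f0_squarefree (F := F) r hr hrp).squarefree_of_dvd ⟨X - 1, by rw [← hmain]; ring⟩
    exact isRelPrime_iff_isCoprime.mp (squarefree_mul_iff.mp h1).1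
  obtain ⟨c, hc, hrev⟩ := reverse_prod_star (F := F) hr P
  rw [← hf, ← hf'] at hrev
  set A := aeval T f with hA
  set A' := aeval T f' with hA'
  set U := LinearMap.ker A' with hU
  set n := f.natDegree with hn
  -- the adjoint kernel
  have hcT : Commute A' T := by
    have h1 := ((commute_X f').map (aeval T)).symm
    simpa using h1
  have hcTT : Commute T T' := by
    show T * T' = T' * T
    rw [h, h']
  have hadjker : LinearMap.ker (aeval T' f) = U := by
    have h1 := aeval_reverse_mul_pow (F := F) (T := T') (T' := T) h' h f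
    rw [hrev, map_mul, aeval_C, ← hn] at h1
    have hc2 : Commute A' (T' ^ n) := (hcT.pow_right (r - 1)).pow_right n
    ext v
    rw [LinearMap.mem_ker, hU, LinearMap.mem_ker, ← h1, Module.End.mul_apply, Module.End.mul_apply,
      Module.algebraMap_end_apply, ← Module.End.mul_apply A', hc2.eq, Module.End.mul_apply, smul_eq_zero]
    constructor
    · rintro (h3 | h3)
      · exact absurd h3 hc
      · have h4 : (T ^ n * T' ^ n) (A' v) = A' v := by
          rw [← hcTT.mul_pow, h', one_pow, Module.End.one_apply]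
        rw [← h4, Module.End.mul_apply, h3, map_zero]
    · intro h3
      right
      rw [h3, map_zero]
  have hperp : LinearMap.ker (aeval T' f) = LinearMap.BilinForm.orthogonal (polarBilin Q) (LinearMap.range A) := by
    ext v
    rw [LinearMap.mem_ker, LinearMap.BilinForm.mem_orthogonal_iff]
    constructor
    · rintro hv _ ⟨u, rfl⟩
      rw [form_aeval _ h' hBiso, hv, map_zero]
    · intro hv
      apply hQ.2
      intro u
      rw [← form_aeval _ h' hBiso]
      exact hv _ ⟨u, rfl⟩
  have hdimadj : finrank F U = finrank F (LinearMap.ker A) := by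
    rw [← hadjker]
    exact Dk_adj _ hQ h' hBiso f
  have hcompl : finrank F (LinearMap.ker A) + finrank F U = finrank F V := by
    have h1 := disjoint_ker_aeval_of_isCoprime T hcop
    have h2 := sup_ker_aeval_eq_ker_aeval_mul_of_coprime T hcop
    rw [hzero, LinearMap.ker_zero] at h2
    have h3 := Submodule.finrank_sup_add_finrank_inf_eq (LinearMap.ker A) U
    rw [h2, h1.eq_bot, finrank_bot, finrank_top, add_zero] at h3
    exact h3.symm
  have hle : LinearMap.range A ≤ U := by
    rintro _ ⟨x, rfl⟩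
    rw [hU, LinearMap.mem_ker]
    have h1 : A' (A x) = aeval T (f * f') x := by
      rw [mul_comm, map_mul]
      rfl
    rw [h1, hzero]
    rfl
  have hrangeeq : LinearMap.range A = U := by
    apply Submodule.eq_of_le_of_finrank_eq hle
    have := LinearMap.finrank_range_add_finrank_ker A
    omega
  have hperpU : ∀ x ∈ U, ∀ y ∈ U, polar Q x y = 0 := by
    intro x hx y hy
    have h1 : y ∈ LinearMap.BilinForm.orthogonal (polarBilin Q) (LinearMap.range A) := by
      rw [← hperp, hadjker]
      exact hy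
    exact h1 x (by rw [hrangeeq]; exact hx)
  refine ⟨U, ?_, by omega⟩
  intro u hu
  by_cases h2 : (2 : F) = 0
  · have hTU : ∀ x ∈ U, (T - 1) x ∈ U := by
      intro x hx
      rw [hU, LinearMap.mem_ker] at hx ⊢
      have h3 : A' ((T - 1) x) = T (A' x) - A' x := by
        rw [LinearMap.sub_apply, map_sub, Module.End.one_apply, ← Module.End.mul_apply A', hcT.eq]
        rfl
      rw [h3, hx, map_zero, sub_zero]
    let D : U →ₗ[F] U := (T - 1).restrict hTU
    have hDinj : Function.Injective D := by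
      rw [injective_iff_map_eq_zero]
      intro w hw
      have h3 : (T - 1) w.1 = 0 := congrArg Subtype.val hw
      rw [LinearMap.sub_apply, Module.End.one_apply, sub_eq_zero] at h3
      exact Subtype.ext (hker1 _ h3)
    obtain ⟨w, hw⟩ := LinearMap.injective_iff_surjective.mp hDinj ⟨u, hu⟩
    have hw' : T w.1 - w.1 = u := congrArg Subtype.val hw
    rw [← hw', sub_eq_add_neg]
    have hTw : T w.1 ∈ U := by
      have h3 := hTU w.1 w.2
      have h4 : T w.1 = (T - 1) w.1 + w.1 := by
        rw [LinearMap.sub_apply, Module.End.one_apply, sub_add_cancel]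
      rw [h4]
      exact U.add_mem h3 w.2
    have h3 : polar Q (T w.1) (-w.1) = 0 := by
      rw [polar_neg_right, hperpU _ hTw _ w.2, neg_zero]
    have h4 : Q (T w.1 + -w.1) = polar Q (T w.1) (-w.1) + Q (T w.1) + Q (-w.1) := by
      rw [polar]
      ring
    rw [h4, h3, hiso, QuadraticMap.map_neg, zero_add, ← two_mul, h2, zero_mul]
  · have h3 := hperpU u hu u hu
    rw [polar_self, two_nsmul, ← two_mul] at h3
    exact (mul_eq_zero.mp h3).resolve_left h2

end OddCase

end Cfsg.Agent.Lib.SSClass
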