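import Cfsg.Agent.Lib.SSClass.Lagr
import Cfsg.Agent.Lib.Wall.PolarQuad
import Cfsg.Agent.Lib.Orth.Bridge

/-!
# Classes of elements of prime order in orthogonal groups
-/

set_option autoImplicit false
set_option linter.unusedSectionVars false
set_option linter.unusedVariables false

namespace Cfsg.Agent.Lib.SSClass

open Polynomial Module QuadraticMap
open Cfsg.Agent.S2568 (SS Th mem_Th x1_mem sum_deg_Th card_SS sum_deg_ss card_tuples)
open Cfsg.Agent.Lib.MatConj.Semisimple Cfsg.Agent.Lib.MatConj.CycloFactors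
open Cfsg.Agent.Lib.ElusF.SpModel
open Cfsg.Agent.Lib.Classical.MatrixBridge

universe u v

section Build

open scoped _root_.Classical

variable {F : Type u} [Field F] [Fintype F] {p q r : ℕ} [Fact p.Prime] [CharP F p]

theorem blk_tuple_even (hr : r.Prime) (Good : (V : Type u) → [AddCommGroup V] → [Module F V] → End F V → Prop)
    (hbase : Good PUnit.{u + 1} 1)
    (hprod : ∀ (V V' : Type u) [AddCommGroup V] [Module F V] [AddCommGroup V'] [Module F V'] (T : End F V) (T' : End F V'),
      Good V T → Good V' T' → Good (V × V') (LinearMap.prodMap T T'))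
    {d i : ℕ} (hblk : ∀ g : SS F r, Blk Good r d i (fun h => if g = h then 1 else 0)) (a : SS F r → ℕ) :
    Blk Good r (d * ∑ g, a g) i a := by
  obtain ⟨l, hl⟩ := exists_list a
  have h := Blk.list hr Good hbase hprod (fun g h => if g = h then 1 else 0) hblk l
  rw [length_of_count hl] at h
  have hc : (fun h => (l.map fun g => if g = h then 1 else 0).sum) = a := by
    funext h
    rw [sum_map_of_count hl, Finset.sum_eq_single h]
    · simp
    · intro g _ hg
      simp [hg]
    · simp
  rw [hc] at h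
  exact h

theorem blk_tuple_odd (hr : r.Prime) (Good : (V : Type u) → [AddCommGroup V] → [Module F V] → End F V → Prop)
    (hbase : Good PUnit.{u + 1} 1)
    (hprod : ∀ (V V' : Type u) [AddCommGroup V] [Module F V] [AddCommGroup V'] [Module F V'] (T : End F V) (T' : End F V'),
      Good V T → Good V' T' → Good (V × V') (LinearMap.prodMap T T'))
    {d i : ℕ} (hblk : ∀ g : SS F r, Blk Good r d i (fun h => (if g = h then 1 else 0) + (if star hr g = h then 1 else 0)))
    {P : Finset (SS F r)} (hP : ∀ x, x ∈ P ↔ star hr x ∉ P) (a : SS F r → ℕ) (ha : a ∘ star hr = a) :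
    ∃ s, 2 * s = ∑ g, a g ∧ Blk Good r (d * s) i a := by
  have ha' : ∀ g, a (star hr g) = a g := fun g => congrFun ha g
  let b : SS F r → ℕ := fun g => if g ∈ P then a g else 0
  obtain ⟨l, hl⟩ := exists_list b
  have h := Blk.list hr Good hbase hprod (fun g h => (if g = h then 1 else 0) + (if star hr g = h then 1 else 0)) hblk l
  have hsumb : ∑ g, b g = ∑ g ∈ P, a g := by
    simp only [b]
    rw [Finset.sum_ite_mem, Finset.univ_inter]
  refine ⟨∑ g ∈ P, a g, ?_, ?_⟩
  · rw [sum_half (star_involutive hr) hP a, two_mul, ← Finset.sum_add_distrib]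
    apply Finset.sum_congr rfl
    intro x _
    rw [ha']
  rw [length_of_count hl, hsumb] at h
  have hc : (fun h => (l.map fun g => (if g = h then 1 else 0) + (if star hr g = h then 1 else 0)).sum) = a := by
    funext h
    rw [sum_map_of_count hl]
    simp only [smul_eq_mul, mul_add, Finset.sum_add_distrib]
    have h1 : ∑ g, b g * (if g = h then 1 else 0) = b h := by
      rw [Finset.sum_eq_single h]
      · simp
      · intro g _ hg
        simp [hg]
      · simp
    have h2 : ∑ g, b g * (if star hr g = h then 1 else 0) = b (star hr h) := by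
      rw [Finset.sum_eq_single (star hr h)]
      · simp [star_star]
      · intro g _ hg
        have : star hr g ≠ h := by
          intro h3
          apply hg
          rw [← h3, star_star]
        simp [this]
      · simp
    rw [h1, h2]
    by_cases hh : h ∈ P
    · have h3 : star hr h ∉ P := (hP h).mp hh
      simp [b, hh, h3]
    · have h3 : star hr h ∈ P := by
        by_contra hc
        exact hh ((hP h).mpr hc)
      simp [b, hh, h3, ha']
  rw [hc] at h
  exact h

/-- Transport of a model to a coordinate space. -/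
theorem transport {ι : Type} [Fintype ι] [DecidableEq ι] (Q₀ : (ι → F) → F) {V₁ R : Type u} [AddCommGroup V₁] [Module F V₁]
    [AddCommGroup R] [Module F R] [FiniteDimensional F V₁] [FiniteDimensional F R] {Q₁ : QuadraticForm F V₁} {QR : QuadraticForm F R} {T₁ : End F V₁}
    (hiso : ∀ v, Q₁ (T₁ v) = Q₁ v) (Θ : (ι → F) ≃ₗ[F] V₁ × R) {c : F} (hc : c ≠ 0)
    (hΘ : ∀ x, (Q₁.prod QR) (Θ x) = c * Q₀ x) (hr : r.Prime) (hT₁ : T₁ ^ r = 1) {i : ℕ} (hi : 0 < i) {a : SS F r → ℕ}
    (hD : ∀ h : SS F r, Dk T₁ h.1 = i * a h) :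
    ∃ T : End F (ι → F), T ^ r = 1 ∧ (∀ v, Q₀ (T v) = Q₀ v) ∧ tup i r T = a := by
  let S : End F (V₁ × R) := LinearMap.prodMap T₁ 1
  let T : End F (ι → F) := Θ.symm.toLinearMap ∘ₗ S ∘ₗ Θ.toLinearMap
  have hT : ∀ x, Θ (T x) = S (Θ x) := fun x => Θ.apply_symm_apply _
  have hS : S ^ r = 1 := pow_prodMap hT₁ (one_pow r)
  have hpow : ∀ (n : ℕ) x, Θ ((T ^ n) x) = (S ^ n) (Θ x) := by
    intro n
    induction n with
    | zero => intro x; rfl
    | succ n ih =>
      intro x
      rw [pow_succ, pow_succ, Module.End.mul_apply, Module.End.mul_apply, ih, hT]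
  refine ⟨T, ?_, ?_, ?_⟩
  · apply LinearMap.ext
    intro x
    apply Θ.injective
    rw [hpow, hS]
    rfl
  · intro v
    apply mul_left_cancel₀ hc
    rw [← hΘ, ← hΘ, hT]
    show Q₁ (T₁ (Θ v).1) + QR ((Θ v).2) = Q₁ (Θ v).1 + QR (Θ v).2
    rw [hiso]
  · funext h
    show Dk T h.1 / i = a h
    rw [Dk_semiconj Θ hT]
    have h1 : Dk S h.1 = Dk T₁ h.1 + Dk (1 : End F R) h.1 := Dk_prod T₁ 1 h.1
    rw [h1, Dk_one_SS hr, add_zero, hD, Nat.mul_div_cancel_left _ hi]

end Build

section Classes

variable {F : Type u} [Field F] [Fintype F] {p q r : ℕ} [Fact p.Prime] [CharP F p]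
variable {ι : Type} [Fintype ι] [DecidableEq ι]

/-- The action of the isometry group. -/
noncomputable def isoHom (Q : (ι → F) → F) : ↥(Cfsg.isometryGroup F Q) →* End F (ι → F) where
  toFun x := Matrix.mulVecLin ((x : GL ι F) : Matrix ι ι F)
  map_one' := by
    apply LinearMap.ext
    intro v
    simp
  map_mul' x y := by
    apply LinearMap.ext
    intro v
    simp

theorem isoHom_apply (Q : (ι → F) → F) (x : ↥(Cfsg.isometryGroup F Q)) (v : ι → F) :
    isoHom Q x v = ((x : GL ι F) : Matrix ι ι F).mulVec v := rfl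

theorem isoHom_injective (Q : (ι → F) → F) : Function.Injective (isoHom (F := F) (ι := ι) Q) := by
  intro x y h
  apply Subtype.ext
  apply Units.ext
  apply Matrix.ext_iff_mulVec.2
  intro v
  exact congrFun (congrArg DFunLike.coe h) v

theorem classes_orth (hF : Fintype.card F = q) (hr : r.Prime) (hr2 : r ≠ 2) (hrp : r ≠ p)
    (Q : QuadraticForm F (ι → F)) (hQ : (polarBilin Q).Nondegenerate) (A : Set (SS F r → ℕ))
    (h0 : (0 : SS F r → ℕ) ∉ A)
    (hnec : ∀ T : End F (ι → F), T ^ r = 1 → T ≠ 1 → (∀ v, Q (T v) = Q v) → tup (orderOf (q : ZMod r)) r T ∈ A)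
    (hsuf : ∀ a ∈ A, ∃ T : End F (ι → F), T ^ r = 1 ∧ (∀ v, Q (T v) = Q v) ∧ tup (orderOf (q : ZMod r)) r T = a) :
    Nat.card {C : ConjClasses ↥(Cfsg.isometryGroup F ⇑Q) // ∃ g : ↥(Cfsg.isometryGroup F ⇑Q), ConjClasses.mk g = C ∧ orderOf g = r} =
      Nat.card A := by
  classical
  haveI hfact : Fact r.Prime := ⟨hr⟩
  have hrF : (r : F) ≠ 0 := by
    intro h
    have h1 : p ∣ r := (CharP.cast_eq_zero_iff F p r).mp h
    have h2 := (Nat.prime_dvd_prime_iff_eq (Fact.out : p.Prime) hr).mp h1
    exact hrp h2.symm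
  have hrodd : Odd r := hr.odd_of_ne_two hr2
  have hmem : ∀ x : ↥(Cfsg.isometryGroup F ⇑Q), ∀ v, Q (isoHom (⇑Q) x v) = Q v := fun x v => x.2 v 0
  refine card_classes hF hr hrp (isoHom (⇑Q)) (isoHom_injective _) A h0 ?_ ?_ ?_
  · intro x y hx hy ⟨P, hP⟩
    have hxr : x ^ r = 1 := by rw [← hx, pow_orderOf_eq_one]
    have hyr : y ^ r = 1 := by rw [← hy, pow_orderOf_eq_one]
    let φ := isoHom (F := F) (ι := ι) (⇑Q)
    obtain ⟨g, hg1, hg2⟩ := Cfsg.Agent.Lib.Wall.PolarQuad.exists_conj_quad hQ (a := φ x) (a' := φ x⁻¹) (b := φ y) (b' := φ y⁻¹)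
      (G := P.toLinearMap) (G' := P.symm.toLinearMap) hrF hrodd
      (by rw [← map_mul, mul_inv_cancel, map_one]) (by rw [← map_mul, inv_mul_cancel, map_one])
      (by rw [← map_mul, mul_inv_cancel, map_one]) (by rw [← map_mul, inv_mul_cancel, map_one])
      (by
        apply LinearMap.ext
        intro v
        simp)
      (by
        apply LinearMap.ext
        intro v
        simp)
      (hmem x) (hmem y)
      (by
        apply LinearMap.ext
        intro v
        exact hP v)
      (by rw [← map_pow, hxr, map_one]) (by rw [← map_pow, hyr, map_one])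
    let e : Cfsg.Agent.Lib.Witt.Quadratic.isoGroup Q := ⟨g, hg1⟩
    let d := (Cfsg.Agent.Lib.Orth.Bridge.toIso Q).symm e
    have hd : ∀ v, ((d : Matrix.GeneralLinearGroup ι F) : Matrix ι ι F).mulVec v = g v := fun v =>
      Cfsg.Agent.Lib.Orth.Bridge.toIso_symm_mulVec Q e v
    refine isConj_iff.mpr ⟨d, ?_⟩
    rw [mul_inv_eq_iff_eq_mul]
    apply isoHom_injective
    apply LinearMap.ext
    intro v
    rw [map_mul, map_mul]
    show isoHom (⇑Q) d (φ x v) = φ y (isoHom (⇑Q) d v)
    have hd' : ∀ v, isoHom (⇑Q) d v = g v := hd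
    rw [hd', hd']
    exact hg2 v
  · intro x hx
    apply hnec
    · rw [← map_pow, ← hx, pow_orderOf_eq_one, map_one]
    · intro h1
      have h2 : x = 1 := isoHom_injective _ (by rw [h1, map_one])
      rw [h2, orderOf_one] at hx
      exact hr.one_lt.ne hx
    · exact hmem x
  · intro a ha
    obtain ⟨T, hT, hiso, hTa⟩ := hsuf a ha
    obtain ⟨s, rfl⟩ : ∃ s, r = s + 1 := ⟨r - 1, by have := hr.pos; omega⟩
    let E : (ι → F) ≃ₗ[F] (ι → F) := LinearEquiv.ofLinearMap T (T ^ s)
      (by
        have : T * T ^ s = 1 := by rw [← pow_succ', hT]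
        exact this)
      (by
        have : T ^ s * T = 1 := by rw [← pow_succ, hT]
        exact this)
    have hg : glToLin.symm E ∈ Cfsg.isometryGroup F ⇑Q := by
      rw [Cfsg.Agent.Lib.Orth.Bridge.mem_isometryGroup_iff]
      intro v
      rw [glToLin_symm_mulVec]
      exact hiso v
    have hφ : isoHom (⇑Q) ⟨_, hg⟩ = T := by
      apply LinearMap.ext
      intro v
      rw [isoHom_apply]
      exact glToLin_symm_mulVec E v
    refine ⟨⟨_, hg⟩, ?_, ?_⟩
    · apply isoHom_injective
      rw [map_pow, hφ, hT, map_one]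
    · rw [hφ]
      exact hTa

end Classes

section Count

open scoped _root_.Classical

variable {F : Type u} [Field F] [Fintype F] {p q r : ℕ} [Fact p.Prime] [CharP F p]
variable {ι : Type} [Fintype ι] [DecidableEq ι]

/-- The facts about the tuple of an isometry. -/
theorem tuple_facts (hF : Fintype.card F = q) (hr : r.Prime) (hrp : r ≠ p) {V : Type v} [AddCommGroup V] [Module F V]
    [FiniteDimensional F V] {T : End F V} (hT : T ^ r = 1) (hne : T ≠ 1) :
    tup (orderOf (q : ZMod r)) r T ≠ 0 ∧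
      Dk T (X - 1 : F[X]) + (∑ g, tup (orderOf (q : ZMod r)) r T g) * orderOf (q : ZMod r) = finrank F V := by
  constructor
  · intro h0
    apply hne
    apply eq_one_of_tup hF hr hrp hT
    intro g
    rw [Dk_eq_mul_tup hF hr hrp hT g, h0]
    simp
  · have h1 := sum_Dk hF hr hrp hT
    rw [Finset.sum_congr rfl (fun g _ => Dk_eq_mul_tup hF hr hrp hT g), ← Finset.sum_mul] at h1
    exact h1

/-- The count, general form: `τ` says the form is hyperbolic when the dimension is even. -/
theorem main_count (hF : Fintype.card F = q) (hr : r.Prime) (hr2 : r ≠ 2) (hrp : r ≠ p) {t : ℕ}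
    (ht : t * orderOf (q : ZMod r) = r - 1)
    (Q : QuadraticForm F (ι → F)) (hQ : (polarBilin Q).Nondegenerate) {n : ℕ} (hn : Fintype.card ι = n) (hn0 : 0 < n)
    (τ : Prop) (hτ : Even n → (HasLagr Q ↔ τ)) (hτodd : Odd n → τ)
    (hglue : ∀ (V₁ : Type u) [AddCommGroup V₁] [Module F V₁] [FiniteDimensional F V₁] (Q₁ : QuadraticForm F V₁),
      (polarBilin Q₁).Nondegenerate → ∀ d, finrank F V₁ = 2 * d → 2 * d ≤ n → (2 * d = n → (HasLagr Q₁ ↔ τ)) →
      ∃ (R : Type u) (_ : AddCommGroup R) (_ : Module F R) (_ : FiniteDimensional F R) (QR : QuadraticForm F R),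
        (polarBilin QR).Nondegenerate ∧ ∃ (Θ : (ι → F) ≃ₗ[F] V₁ × R) (c : F), c ≠ 0 ∧ ∀ x, (Q₁.prod QR) (Θ x) = c * Q x) :
    (Odd (orderOf (q : ZMod r)) →
      Nat.card {C : ConjClasses ↥(Cfsg.isometryGroup F ⇑Q) // ∃ g : ↥(Cfsg.isometryGroup F ⇑Q), ConjClasses.mk g = C ∧ orderOf g = r} =
        (n / 2 / orderOf (q : ZMod r) + t / 2).choose (t / 2) - 1 -
          (if orderOf (q : ZMod r) ∣ n / 2 ∧ ¬ τ then (n / 2 / orderOf (q : ZMod r) + t / 2 - 1).choose (t / 2 - 1) else 0)) ∧
    (Even (orderOf (q : ZMod r)) →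
      Nat.card {C : ConjClasses ↥(Cfsg.isometryGroup F ⇑Q) // ∃ g : ↥(Cfsg.isometryGroup F ⇑Q), ConjClasses.mk g = C ∧ orderOf g = r} =
        (n / orderOf (q : ZMod r) + t).choose t - 1 -
          (if orderOf (q : ZMod r) ∣ n ∧ ¬ (Even (n / orderOf (q : ZMod r)) ↔ τ) then (n / orderOf (q : ZMod r) + t - 1).choose (t - 1) else 0)) := by
  set i := orderOf (q : ZMod r) with hi
  have hipos : 0 < i := orderOf_pos_aux hF r hr hrp
  have hcardS : Fintype.card (SS F r) = t := by
    have h1 := card_SS hF r hr hrp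
    rw [← hi] at h1
    rw [Fintype.card_coe]
    exact Nat.eq_of_mul_eq_mul_right hipos (h1.trans ht.symm)
  have htpos : 0 < t := by
    have := hr.two_le
    rcases Nat.eq_zero_or_pos t with h | h
    · rw [h, zero_mul] at ht
      omega
    · exact h
  have hfinV : finrank F (ι → F) = n := by
    rw [finrank_fintype_fun_eq_card, hn]
  constructor
  · -- `i` odd
    intro hodd
    have hfpf : ∀ g : SS F r, star hr g ≠ g := fun g => star_ne_of_odd hr hr2 g (by
      rw [natDegree_SS hF hr hrp g]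
      exact hodd)
    obtain ⟨P, hP⟩ := exists_half (star (F := F) hr) (star_involutive hr) hfpf
    have hcardP : P.card = t / 2 := by
      have h1 := two_card_half (star_involutive hr) hP
      rw [hcardS] at h1
      omega
    have hPpos : 0 < P.card := by
      have h1 := two_card_half (star_involutive hr) hP
      rw [hcardS] at h1
      omega
    set m := n / 2 with hm
    set N := m / i with hN
    set ex : Prop := i ∣ m ∧ ¬ τ with hex
    have hexpos : ex → 0 < N := by
      rintro ⟨h1, h2⟩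
      have hne : Even n := by
        by_contra hc
        exact h2 (hτodd (Nat.not_even_iff_odd.mp hc))
      have hm0 : 0 < m := by
        obtain ⟨w, hw⟩ := hne
        omega
      exact Nat.div_pos (Nat.le_of_dvd hm0 h1) hipos
    let A : Set (SS F r → ℕ) := {a | a ≠ 0 ∧ a ∘ star hr = a ∧ ∑ g, a g ≤ 2 * N ∧ ¬ (ex ∧ ∑ g, a g = 2 * N)}
    have hcount : Nat.card A = (N + t / 2).choose (t / 2) - 1 - (if ex then (N + t / 2 - 1).choose (t / 2 - 1) else 0) := by
      have h1 := count_sym (star_involutive hr) hP ex N hPpos hexpos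
      rw [hcardP] at h1
      exact h1
    rw [← hcount]
    have hsum2 : ∀ a : SS F r → ℕ, a ∘ star hr = a → ∑ g, a g = 2 * ∑ g ∈ P, a g := by
      intro a ha
      rw [sum_half (star_involutive hr) hP a, two_mul, ← Finset.sum_add_distrib]
      apply Finset.sum_congr rfl
      intro x _
      have h := congrFun ha x
      simp only [Function.comp] at h
      rw [h]
    apply classes_orth hF hr hr2 hrp Q hQ A (fun h => h.1 rfl)
    · intro T hT hne hiso
      have hBiso : ∀ u v, polarBilin Q (T u) (T v) = polarBilin Q u v := by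
        intro u v
        show polar Q (T u) (T v) = polar Q u v
        simp only [polar, ← map_add, hiso]
      obtain ⟨h1, h2⟩ := tuple_facts hF hr hrp hT hne
      rw [← hi, hfinV] at h2
      rw [← hi] at h1
      set a := tup i r T with ha
      have hstar : a ∘ star hr = a := by
        funext g
        show Dk T (star hr g).1 / i = Dk T g.1 / i
        rw [Dk_star hr (polarBilin Q) hQ hT hBiso]
      have hs := hsum2 a hstar
      set w := ∑ g ∈ P, a g with hw
      rw [hs] at h2
      have hwle : w ≤ N := by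
        rw [hN, Nat.le_div_iff_mul_le hipos, hm, Nat.le_div_iff_mul_le (by norm_num)]
        nlinarith
      refine ⟨h1, hstar, by omega, ?_⟩
      rintro ⟨⟨h3, h4⟩, h5⟩
      have hne' : Even n := by
        by_contra hc
        exact h4 (hτodd (Nat.not_even_iff_odd.mp hc))
      have hwN : w = N := by omega
      have h6 : N * i = m := Nat.div_mul_cancel h3
      have h7 : n = 2 * m := by
        obtain ⟨x, hx⟩ := hne'
        omega
      have hfix : Dk T (X - 1 : F[X]) = 0 := by
        rw [hwN] at h2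
        nlinarith
      exact h4 ((hτ hne').mp (lagr_of_odd hF hr hr2 hrp hodd Q hQ hT hiso hfix))
    · rintro a ⟨h1, hstar, h3, h4⟩
      have hs := hsum2 a hstar
      obtain ⟨s, hs2, V₁, _, _, _, T₁, ⟨Q₁, hQ₁, hiso₁⟩, hTr, hf, hx, hD⟩ := blk_tuple_odd hr GoodQ GoodQ.base
        (fun V V' _ _ _ _ T T' h h' => h.prod h') (blkQ_double hF hr hrp) hP a hstar
      have hsN : s ≤ N := by omega
      have hiN : i * N ≤ m := Nat.mul_div_le m i
      have hiS : i * s ≤ m := (Nat.mul_le_mul_left i hsN).trans hiN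
      have hmn : 2 * m ≤ n := by omega
      obtain ⟨R, _, _, _, QR, hQR, Θ, c, hc, hΘ⟩ := hglue V₁ Q₁ hQ₁ (i * s) (by rw [hf]; ring) (by omega) (by
        intro h2d
        have hL := lagr_of_odd hF hr hr2 hrp hodd Q₁ hQ₁ hTr hiso₁ hx
        refine iff_of_true hL ?_
        by_contra hτ'
        have h6 : i * s = m := by omega
        have h7 : i ∣ m := ⟨s, h6.symm⟩
        have h8 : s = N := by
          rw [hN, ← h6, Nat.mul_div_cancel_left _ hipos]
        exact h4 ⟨⟨h7, hτ'⟩, by omega⟩)
      exact transport (⇑Q) hiso₁ Θ hc hΘ hr hTr hipos hD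
  · -- `i` even
    rintro ⟨e, he⟩
    have he' : i = 2 * e := by omega
    have hepos : 0 < e := by omega
    set N := n / i with hN
    set ex : Prop := i ∣ n ∧ ¬ (Even N ↔ τ) with hex
    have hexpos : ex → 0 < N := by
      rintro ⟨h1, -⟩
      exact Nat.div_pos (Nat.le_of_dvd hn0 h1) hipos
    let A : Set (SS F r → ℕ) := {a | a ≠ 0 ∧ ∑ g, a g ≤ N ∧ ¬ (ex ∧ ∑ g, a g = N)}
    have hcount : Nat.card A = (N + t).choose t - 1 - (if ex then (N + t - 1).choose (t - 1) else 0) := by
      have h1 := count_excl (S := SS F r) ex N (by rw [hcardS]; exact htpos) hexpos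
      rw [hcardS] at h1
      exact h1
    rw [← hcount]
    apply classes_orth hF hr hr2 hrp Q hQ A (fun h => h.1 rfl)
    · intro T hT hne hiso
      obtain ⟨h1, h2⟩ := tuple_facts hF hr hrp hT hne
      rw [← hi, hfinV] at h2
      rw [← hi] at h1
      set a := tup i r T with ha
      have hle : ∑ g, a g ≤ N := by
        rw [hN, Nat.le_div_iff_mul_le hipos]
        omega
      refine ⟨h1, hle, ?_⟩
      rintro ⟨⟨h3, h4⟩, h5⟩
      have h6 : N * i = n := Nat.div_mul_cancel h3
      have hfix : Dk T (X - 1 : F[X]) = 0 := by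
        rw [h5] at h2
        omega
      have hd : n = 2 * (e * N) := by
        rw [← h6, he']
        ring
      have hne' : Even n := ⟨e * N, by omega⟩
      obtain ⟨p1, p2⟩ := parity hF hr hr2 hrp Q hQ hT hiso hfix hepos he' (by rw [hfinV]; exact hd) rfl
      apply h4
      by_cases hτ' : τ
      · exact iff_of_true (p1 ((hτ hne').mpr hτ')) hτ'
      · refine iff_of_false ?_ hτ'
        exact Nat.not_even_iff_odd.mpr (p2 (fun h => hτ' ((hτ hne').mp h)))
    · rintro a ⟨h1, h3, h4⟩
      obtain ⟨V₁, _, _, _, T₁, ⟨Q₁, hQ₁, hiso₁⟩, hTr, hf, hx, hD⟩ := blk_tuple_even hr GoodQ GoodQ.base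
        (fun V V' _ _ _ _ T T' h h' => h.prod h') (blkQ_line hF hr hrp hepos he') a
      have hiN : i * N ≤ n := Nat.mul_div_le n i
      have hiS : i * ∑ g, a g ≤ n := (Nat.mul_le_mul_left i h3).trans hiN
      have hiS' : 2 * (e * ∑ g, a g) = i * ∑ g, a g := by
        rw [he']
        ring
      obtain ⟨R, _, _, _, QR, hQR, Θ, c, hc, hΘ⟩ := hglue V₁ Q₁ hQ₁ (e * ∑ g, a g) (by rw [hf]; ring) (by omega) (by
        intro h2d
        obtain ⟨p1, p2⟩ := parity (d := e * ∑ g, a g) (N := ∑ g, a g) hF hr hr2 hrp Q₁ hQ₁ hTr hiso₁ hx hepos he' (by rw [hf]; ring) rfl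
        have h6 : i * ∑ g, a g = n := by omega
        have h7 : i ∣ n := ⟨_, h6.symm⟩
        have h8 : ∑ g, a g = N := by
          rw [hN, ← h6, Nat.mul_div_cancel_left _ hipos]
        have h9 : Even N ↔ τ := by
          by_contra hc
          exact h4 ⟨⟨h7, hc⟩, h8⟩
        rw [h8] at p1 p2
        constructor
        · intro hL
          exact h9.mp (p1 hL)
        · intro hτ'
          by_contra hL
          exact Nat.not_even_iff_odd.mpr (p2 hL) (h9.mpr hτ'))
      refine transport (⇑Q) hiso₁ Θ hc hΘ hr hTr hipos ?_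
      intro h
      rw [hD, he']

end Count

end Cfsg.Agent.Lib.SSClass
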