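import Cfsg.Agent.Lib.SSClass.Main
import Cfsg.Agent.S2589

/-!
# Classes of elements of prime order in symplectic groups
-/

set_option autoImplicit false
set_option linter.unusedSectionVars false
set_option linter.unusedVariables false

namespace Cfsg.Agent.Lib.SSClass

open Polynomial Module
open Cfsg.Agent.S2568 (SS Th mem_Th x1_mem sum_deg_Th card_SS sum_deg_ss card_tuples)
open Cfsg.Agent.Lib.MatConj.Semisimple Cfsg.Agent.Lib.MatConj.CycloFactors
open Cfsg.Agent.Lib.ElusF.SpModel
open Cfsg.Agent.Lib.Classical.MatrixBridge Cfsg.Agent.Lib.Classical.SympForm Cfsg.Agent.Lib.SylowLarge.SpForm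

universe u v

section Classes

variable {F : Type u} [Field F] [Fintype F] {p q r : ℕ} [Fact p.Prime] [CharP F p] {m : ℕ}

/-- The action of the symplectic group. -/
noncomputable def spHom : ↥(Matrix.symplecticGroup (Fin m) F) →* End F (Fin m ⊕ Fin m → F) where
  toFun x := Matrix.mulVecLin (x : Matrix (Fin m ⊕ Fin m) (Fin m ⊕ Fin m) F)
  map_one' := by
    apply LinearMap.ext
    intro v
    show Matrix.mulVec 1 v = v
    simp
  map_mul' x y := by
    apply LinearMap.ext
    intro v
    show Matrix.mulVec ((x : Matrix (Fin m ⊕ Fin m) (Fin m ⊕ Fin m) F) * (y : Matrix (Fin m ⊕ Fin m) (Fin m ⊕ Fin m) F)) v = Matrix.mulVec (x : Matrix (Fin m ⊕ Fin m) (Fin m ⊕ Fin m) F) (Matrix.mulVec (y : Matrix (Fin m ⊕ Fin m) (Fin m ⊕ Fin m) F) v)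
    simp

theorem spHom_apply (x : ↥(Matrix.symplecticGroup (Fin m) F)) (v : Fin m ⊕ Fin m → F) :
    spHom x v = (x : Matrix (Fin m ⊕ Fin m) (Fin m ⊕ Fin m) F).mulVec v := rfl

theorem spHom_injective : Function.Injective (spHom (F := F) (m := m)) := by
  intro x y h
  apply Subtype.ext
  apply Matrix.ext_iff_mulVec.2
  intro v
  exact congrFun (congrArg DFunLike.coe h) v

theorem classes_symp (hF : Fintype.card F = q) (hr : r.Prime) (hrp : r ≠ p) (A : Set (SS F r → ℕ))
    (h0 : (0 : SS F r → ℕ) ∉ A)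
    (hnec : ∀ T : End F (Fin m ⊕ Fin m → F), T ^ r = 1 → T ≠ 1 → (∀ u v, sympBilin m F (T u) (T v) = sympBilin m F u v) →
      tup (orderOf (q : ZMod r)) r T ∈ A)
    (hsuf : ∀ a ∈ A, ∃ T : End F (Fin m ⊕ Fin m → F), T ^ r = 1 ∧ (∀ u v, sympBilin m F (T u) (T v) = sympBilin m F u v) ∧
      tup (orderOf (q : ZMod r)) r T = a) :
    Nat.card {C : ConjClasses ↥(Matrix.symplecticGroup (Fin m) F) // ∃ g : ↥(Matrix.symplecticGroup (Fin m) F), ConjClasses.mk g = C ∧ orderOf g = r} =
      Nat.card A := by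
  classical
  haveI hfact : Fact r.Prime := ⟨hr⟩
  have hmem : ∀ x : ↥(Matrix.symplecticGroup (Fin m) F), ∀ u v, sympBilin m F (spHom x u) (spHom x v) = sympBilin m F u v :=
    fun x u v => (mem_symplecticGroup_iff _).mp x.2 u v
  refine card_classes hF hr hrp spHom spHom_injective A h0 ?_ ?_ ?_
  · intro x y hx hy ⟨P, hP⟩
    have hcop : (orderOf x).Coprime p := by
      rw [hx]
      exact (Nat.coprime_primes hr (Fact.out : p.Prime)).mpr hrp
    rw [Cfsg.Agent.S2589.result x y hcop]
    refine ⟨glToLin.symm P, ?_⟩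
    show ((glToLin.symm P : GL (Fin m ⊕ Fin m) F) : Matrix (Fin m ⊕ Fin m) (Fin m ⊕ Fin m) F) * (x : Matrix (Fin m ⊕ Fin m) (Fin m ⊕ Fin m) F) = (y : Matrix (Fin m ⊕ Fin m) (Fin m ⊕ Fin m) F) * ((glToLin.symm P : GL (Fin m ⊕ Fin m) F) : Matrix (Fin m ⊕ Fin m) (Fin m ⊕ Fin m) F)
    apply Matrix.ext_iff_mulVec.2
    intro v
    rw [← Matrix.mulVec_mulVec, ← Matrix.mulVec_mulVec, glToLin_symm_mulVec, glToLin_symm_mulVec]
    exact hP v
  · intro x hx
    apply hnec
    · rw [← map_pow, ← hx, pow_orderOf_eq_one, map_one]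
    · intro h1
      have h2 : x = 1 := spHom_injective (by rw [h1, map_one])
      rw [h2, orderOf_one] at hx
      exact hr.one_lt.ne hx
    · exact hmem x
  · intro a ha
    obtain ⟨T, hT, hiso, hTa⟩ := hsuf a ha
    have hg : LinearMap.toMatrix' T ∈ Matrix.symplecticGroup (Fin m) F := by
      rw [mem_symplecticGroup_iff]
      intro u v
      rw [LinearMap.toMatrix'_mulVec, LinearMap.toMatrix'_mulVec]
      exact hiso u v
    have hφ : spHom ⟨_, hg⟩ = T := by
      apply LinearMap.ext
      intro v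
      rw [spHom_apply]
      exact LinearMap.toMatrix'_mulVec T v
    refine ⟨⟨_, hg⟩, ?_, ?_⟩
    · apply spHom_injective
      rw [map_pow, hφ, hT, map_one]
    · rw [hφ]
      exact hTa

/-- Transport of a model to the standard symplectic space. -/
theorem transport_symp {V₁ : Type u} [AddCommGroup V₁] [Module F V₁] [FiniteDimensional F V₁] {B₁ : LinearMap.BilinForm F V₁}
    {T₁ : End F V₁} (hB : Rz B₁ T₁ r) {d : ℕ} (hV : finrank F V₁ = 2 * d) (hdm : d ≤ m) (hr : r.Prime) {i : ℕ} (hi : 0 < i)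
    {a : SS F r → ℕ} (hD : ∀ h : SS F r, Dk T₁ h.1 = i * a h) :
    ∃ T : End F (Fin m ⊕ Fin m → F), T ^ r = 1 ∧ (∀ u v, sympBilin m F (T u) (T v) = sympBilin m F u v) ∧ tup i r T = a := by
  let R := Fin (m - d) ⊕ Fin (m - d) → F
  have hRz : Rz (sumForm B₁ (sympBilin (m - d) F)) (LinearMap.prodMap T₁ 1 : End F (V₁ × R)) r := hB.prod (Rz.triv _ r)
  have hfr : finrank F (Fin m ⊕ Fin m → F) = finrank F (V₁ × R) := by
    rw [finrank_prod, hV, finrank_triv, finrank_triv]
    omega
  obtain ⟨Θ, hΘ⟩ := Cfsg.Agent.Lib.Wall.PolarForm.exists_isom_alt (sympBilin m F) _ sympBilin_isAlt hRz.alt sympBilin_nondegenerate hRz.nondeg hfr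
  let S : End F (V₁ × R) := LinearMap.prodMap T₁ 1
  let T : End F (Fin m ⊕ Fin m → F) := Θ.symm.toLinearMap ∘ₗ S ∘ₗ Θ.toLinearMap
  have hT : ∀ x, Θ (T x) = S (Θ x) := fun x => Θ.apply_symm_apply _
  have hpow : ∀ (n : ℕ) x, Θ ((T ^ n) x) = (S ^ n) (Θ x) := by
    intro n
    induction n with
    | zero => intro x; rfl
    | succ n ih =>
      intro x
      rw [pow_succ, pow_succ, Module.End.mul_apply, Module.End.mul_apply, ih, hT]
  refine ⟨T, ?_, ?_, ?_⟩
  · apply LinearMap.ext
    intro x
    apply Θ.injective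
    rw [hpow]
    have hS : S ^ r = 1 := hRz.pow
    rw [hS]
    rfl
  · intro u v
    rw [← hΘ, ← hΘ, hT, hT]
    exact hRz.iso _ _
  · funext h
    show Dk T h.1 / i = a h
    rw [Dk_semiconj Θ hT]
    have h1 : Dk S h.1 = Dk T₁ h.1 + Dk (1 : End F R) h.1 := Dk_prod T₁ 1 h.1
    rw [h1, Dk_one_SS hr, add_zero, hD, Nat.mul_div_cancel_left _ hi]

end Classes

section Count

open scoped _root_.Classical

variable {F : Type u} [Field F] [Fintype F] {p q r : ℕ} [Fact p.Prime] [CharP F p]

/-- The count for the symplectic groups. -/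
theorem main_count_symp (hF : Fintype.card F = q) (hr : r.Prime) (hr2 : r ≠ 2) (hrp : r ≠ p) {t : ℕ}
    (ht : t * orderOf (q : ZMod r) = r - 1) (m : ℕ) :
    (Odd (orderOf (q : ZMod r)) →
      Nat.card {C : ConjClasses ↥(Matrix.symplecticGroup (Fin m) F) // ∃ g : ↥(Matrix.symplecticGroup (Fin m) F), ConjClasses.mk g = C ∧ orderOf g = r} =
        (m / orderOf (q : ZMod r) + t / 2).choose (t / 2) - 1) ∧
    (Even (orderOf (q : ZMod r)) →
      Nat.card {C : ConjClasses ↥(Matrix.symplecticGroup (Fin m) F) // ∃ g : ↥(Matrix.symplecticGroup (Fin m) F), ConjClasses.mk g = C ∧ orderOf g = r} =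
        (2 * m / orderOf (q : ZMod r) + t).choose t - 1) := by
  set i := orderOf (q : ZMod r) with hi
  have hipos : 0 < i := orderOf_pos_aux hF r hr hrp
  have hcardS : Fintype.card (SS F r) = t := by
    have h1 := card_SS hF r hr hrp
    rw [← hi] at h1
    rw [Fintype.card_coe]
    exact Nat.eq_of_mul_eq_mul_right hipos (h1.trans ht.symm)
  have htpos : 0 < t := by
    have := hr.two_le
    rcases Nat.eq_zero_or_pos t with h | h
    · rw [h, zero_mul] at ht
      omega
    · exact h
  have hfinV : finrank F (Fin m ⊕ Fin m → F) = 2 * m := finrank_triv m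
  constructor
  · -- `i` odd
    intro hodd
    have hfpf : ∀ g : SS F r, star hr g ≠ g := fun g => star_ne_of_odd hr hr2 g (by
      rw [natDegree_SS hF hr hrp g]
      exact hodd)
    obtain ⟨P, hP⟩ := exists_half (star (F := F) hr) (star_involutive hr) hfpf
    have hcardP : P.card = t / 2 := by
      have h1 := two_card_half (star_involutive hr) hP
      rw [hcardS] at h1
      omega
    have hPpos : 0 < P.card := by
      have h1 := two_card_half (star_involutive hr) hP
      rw [hcardS] at h1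
      omega
    set N := m / i with hN
    let A : Set (SS F r → ℕ) := {a | a ≠ 0 ∧ a ∘ star hr = a ∧ ∑ g, a g ≤ 2 * N ∧ ¬ (False ∧ ∑ g, a g = 2 * N)}
    have hcount : Nat.card A = (N + t / 2).choose (t / 2) - 1 := by
      have h1 := count_sym (star_involutive hr) hP False N hPpos (fun h => h.elim)
      rw [hcardP, if_neg not_false, Nat.sub_zero] at h1
      exact h1
    rw [← hcount]
    have hsum2 : ∀ a : SS F r → ℕ, a ∘ star hr = a → ∑ g, a g = 2 * ∑ g ∈ P, a g := by
      intro a ha
      rw [sum_half (star_involutive hr) hP a, two_mul, ← Finset.sum_add_distrib]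
      apply Finset.sum_congr rfl
      intro x _
      have h := congrFun ha x
      simp only [Function.comp] at h
      rw [h]
    apply classes_symp hF hr hrp A (fun h => h.1 rfl)
    · intro T hT hne hiso
      obtain ⟨h1, h2⟩ := tuple_facts hF hr hrp hT hne
      rw [← hi, hfinV] at h2
      rw [← hi] at h1
      set a := tup i r T with ha
      have hstar : a ∘ star hr = a := by
        funext g
        show Dk T (star hr g).1 / i = Dk T g.1 / i
        rw [Dk_star hr (sympBilin m F) sympBilin_nondegenerate hT hiso]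
      have hs := hsum2 a hstar
      set w := ∑ g ∈ P, a g with hw
      rw [hs] at h2
      have hwle : w ≤ N := by
        rw [hN, Nat.le_div_iff_mul_le hipos]
        nlinarith
      exact ⟨h1, hstar, by omega, fun h => h.1⟩
    · rintro a ⟨h1, hstar, h3, h4⟩
      obtain ⟨s, hs2, V₁, _, _, _, T₁, ⟨B₁, hB⟩, hTr, hf, hx, hD⟩ := blk_tuple_odd hr (GoodS r) (GoodS.base r)
        (fun V V' _ _ _ _ T T' h h' => h.prod h') (blkS_double hF hr hrp) hP a hstar
      have hsN : s ≤ N := by omega
      have hiN : i * N ≤ m := Nat.mul_div_le m i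
      have hiS : i * s ≤ m := (Nat.mul_le_mul_left i hsN).trans hiN
      exact transport_symp hB (d := i * s) (by rw [hf]; ring) hiS hr hipos hD
  · -- `i` even
    rintro ⟨e, he⟩
    have he' : i = 2 * e := by omega
    have hepos : 0 < e := by omega
    set N := 2 * m / i with hN
    let A : Set (SS F r → ℕ) := {a | a ≠ 0 ∧ ∑ g, a g ≤ N ∧ ¬ (False ∧ ∑ g, a g = N)}
    have hcount : Nat.card A = (N + t).choose t - 1 := by
      have h1 := count_excl (S := SS F r) False N (by rw [hcardS]; exact htpos) (fun h => h.elim)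
      rw [hcardS, if_neg not_false, Nat.sub_zero] at h1
      exact h1
    rw [← hcount]
    apply classes_symp hF hr hrp A (fun h => h.1 rfl)
    · intro T hT hne hiso
      obtain ⟨h1, h2⟩ := tuple_facts hF hr hrp hT hne
      rw [← hi, hfinV] at h2
      rw [← hi] at h1
      have hle : ∑ g, tup i r T g ≤ N := by
        rw [hN, Nat.le_div_iff_mul_le hipos]
        omega
      exact ⟨h1, hle, fun h => h.1⟩
    · rintro a ⟨h1, h3, h4⟩
      obtain ⟨V₁, _, _, _, T₁, ⟨B₁, hB⟩, hTr, hf, hx, hD⟩ := blk_tuple_even hr (GoodS r) (GoodS.base r)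
        (fun V V' _ _ _ _ T T' h h' => h.prod h') (blkS_line hF hr hrp hepos he') a
      have hiN : i * N ≤ 2 * m := Nat.mul_div_le (2 * m) i
      have hiS : i * ∑ g, a g ≤ 2 * m := (Nat.mul_le_mul_left i h3).trans hiN
      have hiS' : 2 * (e * ∑ g, a g) = i * ∑ g, a g := by
        rw [he']
        ring
      refine transport_symp hB (d := e * ∑ g, a g) (by rw [hf]; ring) (by omega) hr hipos ?_
      intro h
      rw [hD, he']

end Count

end Cfsg.Agent.Lib.SSClass
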